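import Cfsg.Agent.Lib.CosetCert.Chain2
import Cfsg.Agent.Lib.CosetCert.D.Ru.Tbl
import Cfsg.Agent.Lib.CosetCert.D.RuT.Tbl

namespace Cfsg.Agent.Lib.CosetCert.D.RuT.Link

open Cfsg.Agent.Lib.CosetCert Cfsg.Agent.Lib.TC.Core Cfsg.Agent.Lib.TC.Enc Cfsg.Agent.Lib.TC.Pres Cfsg.Agent.Lib.TC.Perm Cfsg.Agent.Lib.TC.Main

set_option maxRecDepth 100000

/-- The words of the letters of the Tits group in the letters of the Rudvalis group. -/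
def lwT : List (List ℕ) := [[0,2,0,1,0,2,2,2,0,1,0,2,0,1,1,1,1,0,1,0,1,1,0],[1,0,2,0,1,0,1,1,0,2,0,2,0,1,1,0,1,1,1,0,1,1,0,2,2],[1,0,2,2,2,0,2,2,2,2,0,1,1,0,1,1,0,2,2],[1,1,0,2,2,0,2,2,2,0,2,2,0,1,0,1,0,2,2,0,2,0,1,0,2],[1,1,0,2,0,2,0,2,2,2,0,1,0,2,0,2,2,2,0,1,1,0,2,2]]

theorem hw : ∀ l ∈ lwT, ∀ z ∈ l, z < Cfsg.Agent.Lib.CosetCert.D.Ru.Tbl.L0.k := by decide +kernel

theorem hvalR : allR (guard 4060 (fun x => wordIs Cfsg.Agent.Lib.CosetCert.D.Ru.Tbl.F0 Cfsg.Agent.Lib.CosetCert.D.RuT.Tbl.F0 lwT x 0)) 12 0 = true := by decide +kernel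

theorem hle : Cfsg.Agent.Lib.CosetCert.D.RuT.Tbl.L0.G ≤ Cfsg.Agent.Lib.CosetCert.D.Ru.Tbl.L0.G :=
  Letters.G_le_of_words _ _ hw (all_of_allR (by decide) hvalR) (by decide) (by decide)

theorem hfixK : allLt (fun s => Nat.beq (Cfsg.Agent.Lib.CosetCert.D.RuT.Tbl.F0 s 0) 0) 5 = true := by decide +kernel

theorem hfix : ∀ g ∈ Cfsg.Agent.Lib.CosetCert.D.RuT.Tbl.L0.G, g (0 : Fin 4060) = 0 :=
  Letters.fix_of_mem _ (fun s hs => Nat.eq_of_beq_eq_true (allLt_spec hfixK s hs))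

end Cfsg.Agent.Lib.CosetCert.D.RuT.Link
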